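import Cfsg.Agent.Lib.Perm.Burnside
import Mathlib.RingTheory.Polynomial.Cyclotomic.Roots
import Mathlib.Analysis.Fourier.ZMod

/-!
Automorphisms of a two-transitive group of prime degree fixing a `p`-cycle commute: to each of them
belongs a circulant intertwiner, and circulant matrices commute.
-/

set_option autoImplicit false

namespace Cfsg.Agent.Lib.PrimeIndex

open MulAction Cfsg.Agent.Lib.Perm

variable {p : ℕ} [hp : Fact p.Prime]

/-- Cyclic convolution. -/
def cconv (a b : ZMod p → ℚ) (n : ZMod p) : ℚ := ∑ k, a (n - k) * b k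

/-- Evaluation at a primitive root of unity. -/
noncomputable def fEval (f : ZMod p → ℚ) : ℂ := ∑ j, (f j : ℂ) * ZMod.stdAddChar j

theorem fEval_cconv (a b : ZMod p → ℚ) : fEval (cconv a b) = fEval a * fEval b := by
  simp only [fEval, cconv, Rat.cast_sum, Rat.cast_mul, Finset.sum_mul]
  rw [Finset.sum_comm]
  conv_rhs => enter [2, i]; rw [Finset.mul_sum]
  conv_rhs => rw [Finset.sum_comm]
  refine Finset.sum_congr rfl fun k _ => ?_
  refine Fintype.sum_equiv (Equiv.subRight k) _ _ fun n => ?_
  simp only [Equiv.subRight_apply]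
  conv_lhs => rw [← sub_add_cancel n k, AddChar.map_add_eq_mul]
  rw [sub_add_cancel]
  ring

theorem stdAddChar_eq_pow (j : ZMod p) :
    ZMod.stdAddChar j = (ZMod.stdAddChar (1 : ZMod p)) ^ j.val := by
  rw [← AddChar.map_nsmul_eq_pow, nsmul_one, ZMod.natCast_zmod_val]

theorem isPrimitiveRoot_stdAddChar : IsPrimitiveRoot (ZMod.stdAddChar (1 : ZMod p)) p := by
  have h1 : ZMod.stdAddChar (1 : ZMod p) ^ p = 1 := by
    rw [← AddChar.map_nsmul_eq_pow, nsmul_one, ZMod.natCast_self, AddChar.map_zero_eq_one]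
  have h2 : ZMod.stdAddChar (1 : ZMod p) ≠ 1 := fun h => one_ne_zero
    (ZMod.injective_stdAddChar (h.trans (AddChar.map_zero_eq_one (ZMod.stdAddChar (N := p))).symm))
  exact IsPrimitiveRoot.iff_orderOf.mpr (orderOf_eq_prime h1 h2)

theorem const_of_fEval_eq_zero {f : ZMod p → ℚ} (h : fEval f = 0) (i j : ZMod p) : f i = f j := by
  classical
  let q : Polynomial ℚ := ∑ k : ZMod p, Polynomial.monomial k.val (f k)
  have hq : Polynomial.aeval (ZMod.stdAddChar (1 : ZMod p)) q = 0 := by
    rw [← h, fEval, map_sum]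
    refine Finset.sum_congr rfl fun k _ => ?_
    rw [Polynomial.aeval_monomial, ← stdAddChar_eq_pow]
    rfl
  have hdvd : Polynomial.cyclotomic p ℚ ∣ q := by
    rw [Polynomial.cyclotomic_eq_minpoly_rat isPrimitiveRoot_stdAddChar hp.out.pos]
    exact minpoly.dvd ℚ _ hq
  have hcoeff : ∀ k : ZMod p, q.coeff k.val = f k := by
    intro k
    rw [Polynomial.finsetSum_coeff, Finset.sum_eq_single k]
    · rw [Polynomial.coeff_monomial, if_pos rfl]
    · intro b _ hb
      rw [Polynomial.coeff_monomial, if_neg fun e => hb (ZMod.val_injective p e)]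
    · exact fun hk => absurd (Finset.mem_univ k) hk
  have hdeg : q.natDegree ≤ p - 1 :=
    Polynomial.natDegree_sum_le_of_forall_le _ _ fun k _ =>
      (Polynomial.natDegree_monomial_le _).trans (Nat.le_sub_one_of_lt (ZMod.val_lt k))
  obtain ⟨r, hr⟩ := hdvd
  have hr0 : r.natDegree = 0 := by
    rcases eq_or_ne r 0 with h0 | h0
    · simp [h0]
    · rw [hr, Polynomial.natDegree_mul (Polynomial.cyclotomic_ne_zero p ℚ) h0,
        Polynomial.natDegree_cyclotomic, Nat.totient_prime hp.out] at hdeg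
      omega
  have hval : ∀ k : ZMod p, f k = r.coeff 0 := by
    intro k
    rw [← hcoeff, hr, Polynomial.eq_C_of_natDegree_eq_zero hr0, Polynomial.coeff_mul_C,
      Polynomial.coeff_C_zero, Polynomial.cyclotomic_prime, Polynomial.finsetSum_coeff,
      Finset.sum_eq_single k.val]
    · simp
    · intro b _ hb
      rw [Polynomial.coeff_X_pow, if_neg (Ne.symm hb)]
    · exact fun hk => absurd (Finset.mem_range.mpr (ZMod.val_lt k)) hk
  rw [hval, hval]

variable {G : Type*} [Group G] {Ω : Type*} [MulAction G Ω] {c : G} {e : Ω ≃ ZMod p}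

/-- `f` is a circulant intertwiner between the action and its `φ`-twist. -/
def IsTw (e : Ω ≃ ZMod p) (φ : MulAut G) (f : ZMod p → ℚ) : Prop :=
  ∀ (g : G) (u v : Ω), f (e (φ g • u) - e (g • v)) = f (e u - e v)

theorem sum_shift (a b : ZMod p → ℚ) (i j : ZMod p) :
    ∑ k, a (i - k) * b (k - j) = cconv a b (i - j) := by
  rw [cconv]
  exact Fintype.sum_equiv (Equiv.subRight j) _ _ fun k => by
    simp [Equiv.subRight, sub_sub_sub_cancel_right]

theorem IsTw.comp {φ ψ : MulAut G} {a b : ZMod p → ℚ} (ha : IsTw e φ a) (hb : IsTw e ψ b) :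
    IsTw e (φ * ψ) (cconv a b) := by
  intro g u v
  rw [← sum_shift a b, ← sum_shift a b]
  refine (Fintype.sum_equiv (e.symm.trans ((MulAction.toPerm (α := G) (β := Ω) (ψ g)).trans e)) _ _ fun k => ?_).symm
  simp only [Equiv.trans_apply, MulAction.toPerm_apply]
  have h1 := ha (ψ g) u (e.symm k)
  have h2 := hb g (e.symm k) v
  rw [Equiv.apply_symm_apply] at h1 h2
  rw [MulAut.mul_apply, h1, h2]

theorem IsTw.const_off_zero (h2t : IsMultiplyPretransitive G Ω 2) {f : ZMod p → ℚ}
    (hf : IsTw e (1 : MulAut G) f) {j : ZMod p} (hj : j ≠ 0) : f j = f 1 := by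
  have h10 : e.symm 1 ≠ e.symm 0 := fun h => one_ne_zero (e.symm.injective h)
  have hj0 : e.symm j ≠ e.symm 0 := fun h => hj (e.symm.injective h)
  obtain ⟨g, hg1, hg0⟩ := (is_two_pretransitive_iff.mp h2t) h10 hj0
  have h := hf g (e.symm 1) (e.symm 0)
  rw [MulAut.one_apply, hg1, hg0] at h
  simpa using h

/-- Every automorphism fixing `c` has an intertwiner with non-zero eigenvalue. -/
theorem exists_isTw [Finite G] (he : IsLabel c e) (hp2 : ¬ p * p ∣ Nat.card G)
    [IsPretransitive G Ω] {φ : MulAut G} (hφ : φ c = c) :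
    ∃ f : ZMod p → ℚ, IsTw e φ f ∧ fEval f ≠ 0 := by
  classical
  set a : Ω := e.symm 0 with ha
  let L : Subgroup G := (stabilizer G a).map (φ : G ≃* G).toMonoidHom
  let D : Set Ω := MulAction.orbit L a
  let f : ZMod p → ℚ := fun j => if e.symm j ∈ D then 1 else 0
  have hfix : ∀ i : ℤ, φ (c ^ i) = c ^ i := fun i => by rw [map_zpow, hφ]
  have hD : ∀ h : G, h • a = a → ∀ w : Ω, (φ h • w ∈ D ↔ w ∈ D) := by
    intro h hh w
    let l : L := ⟨φ h, Subgroup.mem_map_of_mem _ (mem_stabilizer_iff.mpr hh)⟩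
    show l • w ∈ MulAction.orbit L a ↔ w ∈ MulAction.orbit L a
    constructor
    · rintro ⟨m, hm⟩
      exact ⟨l⁻¹ * m, by simp only [mul_smul] at hm ⊢; rw [hm, inv_smul_smul]⟩
    · rintro ⟨m, rfl⟩
      exact ⟨l * m, mul_smul l m a⟩
  refine ⟨f, fun g u v => ?_, fun h0 => ?_⟩
  · set i : ℤ := ((e v).val : ℤ) with hi
    set i' : ℤ := ((e (g • v)).val : ℤ) with hi'
    let h : G := c ^ (-i') * g * c ^ i
    have hv : c ^ i • a = v := e.injective (by
      rw [he.zpow, hi, Int.cast_natCast, ZMod.natCast_zmod_val, ha, Equiv.apply_symm_apply, zero_add])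
    have hh : h • a = a := e.injective (by
      rw [mul_smul, mul_smul, hv, he.zpow, hi', Int.cast_neg, Int.cast_natCast,
        ZMod.natCast_zmod_val, ha, Equiv.apply_symm_apply, add_neg_cancel])
    have hw : φ h • e.symm (e u - e v) = e.symm (e (φ g • u) - e (g • v)) := by
      rw [map_mul, map_mul, hfix, hfix, mul_smul, mul_smul]
      have hu : c ^ i • e.symm (e u - e v) = u := e.injective (by
        rw [he.zpow, Equiv.apply_symm_apply, hi, Int.cast_natCast, ZMod.natCast_zmod_val,
          sub_add_cancel])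
      rw [hu]
      apply e.injective
      rw [he.zpow, Equiv.apply_symm_apply, hi', Int.cast_neg, Int.cast_natCast,
        ZMod.natCast_zmod_val, sub_eq_add_neg]
    have := hD h hh (e.symm (e u - e v))
    rw [hw] at this
    simp only [f, this]
  · have hc := const_of_fEval_eq_zero h0
    have h1 : f 0 = 1 := if_pos (ha ▸ MulAction.mem_orbit_self a)
    have hall : D = Set.univ := Set.eq_univ_of_forall fun w => by
      by_contra hw
      have := hc (e w) 0
      rw [h1] at this
      simp [f, hw] at this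
    have hΩ : Nat.card Ω = p := by rw [Nat.card_congr e, Nat.card_zmod]
    have hdvd : p ∣ Nat.card L := by
      have := MulAction.index_stabilizer L a
      rw [show MulAction.orbit L a = Set.univ from hall, Set.ncard_univ, hΩ] at this
      exact this ▸ Subgroup.index_dvd_card _
    rw [Nat.card_congr (Subgroup.equivMapOfInjective (stabilizer G a) _
      (φ : G ≃* G).injective).toEquiv.symm] at hdvd
    apply hp2
    have h3 : (stabilizer G a).index = p := by
      rw [index_stabilizer_of_transitive, hΩ]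
    calc p * p ∣ Nat.card (stabilizer G a) * p := Nat.mul_dvd_mul_right hdvd p
      _ = Nat.card G := by
        conv_lhs => arg 2; rw [← h3]
        exact Subgroup.card_mul_index _

/-- Automorphisms fixing the translation commute. -/
theorem commute_of_fix [Finite G] [FaithfulSMul G Ω] [IsPretransitive G Ω] (he : IsLabel c e)
    (hp2 : ¬ p * p ∣ Nat.card G) (h2t : IsMultiplyPretransitive G Ω 2) {φ ψ : MulAut G}
    (hφ : φ c = c) (hψ : ψ c = c) : Commute φ ψ := by
  have hφ' : φ⁻¹ c = c := by conv_lhs => rw [← hφ]; simp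
  have hψ' : ψ⁻¹ c = c := by conv_lhs => rw [← hψ]; simp
  obtain ⟨a, ha, ha0⟩ := exists_isTw he hp2 hφ
  obtain ⟨b, hb, hb0⟩ := exists_isTw he hp2 hψ
  obtain ⟨a', ha', ha0'⟩ := exists_isTw he hp2 hφ'
  obtain ⟨b', hb', hb0'⟩ := exists_isTw he hp2 hψ'
  set f₁ := cconv (cconv (cconv a b) a') b' with hf₁
  set f₂ := cconv (cconv (cconv a a') b) b' with hf₂
  have hT₁ : IsTw e (φ * ψ * φ⁻¹ * ψ⁻¹) f₁ := ((ha.comp hb).comp ha').comp hb'
  have hT₂ : IsTw e (1 : MulAut G) f₂ := by
    have := ((ha.comp ha').comp hb).comp hb'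
    rwa [mul_inv_cancel, one_mul, mul_inv_cancel] at this
  have hF : fEval f₁ = fEval f₂ := by
    rw [hf₁, hf₂]; simp only [fEval_cconv]; ring
  have hd : ∀ i j, f₁ i - f₂ i = f₁ j - f₂ j := fun i j =>
    const_of_fEval_eq_zero (f := fun k => f₁ k - f₂ k) (by
      simp only [fEval] at hF ⊢
      simp only [Rat.cast_sub, sub_mul, Finset.sum_sub_distrib, hF, sub_self]) i j
  have hoff : ∀ j, j ≠ 0 → f₁ j = f₁ 1 := fun j hj => by
    have := hd j 1
    rw [hT₂.const_off_zero h2t hj] at this
    linarith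
  have hne : f₁ 0 ≠ f₁ 1 := by
    intro h
    have h0 : fEval f₁ = 0 := by
      have hconst : ∀ j, f₁ j = f₁ 1 := fun j => by
        rcases eq_or_ne j 0 with rfl | hj
        · exact h
        · exact hoff j hj
      simp only [fEval, hconst, ← Finset.mul_sum]
      rw [AddChar.sum_eq_zero_of_ne_one, mul_zero]
      intro hc
      exact one_ne_zero (ZMod.injective_stdAddChar (N := p)
        (a₁ := 1) (a₂ := 0) (by rw [hc]; simp))
    rw [hf₁] at h0
    simp only [fEval_cconv, mul_eq_zero] at h0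
    tauto
  have hone : φ * ψ * φ⁻¹ * ψ⁻¹ = 1 := by
    refine MulEquiv.ext fun g => ?_
    rw [MulAut.one_apply]
    refine eq_of_smul_eq_smul (α := Ω) fun v => ?_
    have h := hT₁ g v v
    rw [sub_self] at h
    refine e.injective (sub_eq_zero.mp ?_)
    by_contra hne'
    rw [hoff _ hne'] at h
    exact hne h.symm
  exact commutatorElement_eq_one_iff_commute.mp hone

end Cfsg.Agent.Lib.PrimeIndex
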